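-- Project AMI (S4294), package [GAUSS] (helper80): `4 N² Φ_l = Y² + l Z²` in `ℤ[X]` for a prime
-- `l ≡ 3 (mod 4)`.
import Cfsg.Agent.Lib.Lead.Ami.Defs

set_option autoImplicit false

namespace Cfsg.Agent.Lib.Helper80.Ami

open Polynomial Finset

section split

variable {l : ℕ} [Fact l.Prime]

/-- the elements of `ZMod l` with quadratic character `ε` -/
noncomputable def S80 (l : ℕ) [Fact l.Prime] (ε : ℤ) : Finset (ZMod l) :=
  Finset.univ.filter (fun a : ZMod l => quadraticChar (ZMod l) a = ε)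

theorem mem_S80 (ε : ℤ) (a : ZMod l) : a ∈ S80 l ε ↔ quadraticChar (ZMod l) a = ε := by
  simp [S80]

theorem filter_not80 :
    Finset.univ.filter (fun a : ZMod l => ¬ quadraticChar (ZMod l) a = 1) = insert 0 (S80 l (-1)) := by
  ext a
  simp only [mem_filter, mem_univ, true_and, mem_insert, mem_S80]
  constructor
  · intro h
    by_cases ha : a = 0
    · exact Or.inl ha
    · rcases quadraticChar_dichotomy ha with h1 | h1
      · exact absurd h1 h
      · exact Or.inr h1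
  · rintro (rfl | h)
    · simp
    · rw [h]; decide

theorem zero_notMem80 : (0 : ZMod l) ∉ S80 l (-1) := by
  rw [mem_S80]
  simp

theorem sum_split80 {M : Type*} [AddCommMonoid M] (f : ZMod l → M) :
    ∑ a, f a = ∑ a ∈ S80 l 1, f a + (f 0 + ∑ a ∈ S80 l (-1), f a) := by
  rw [← Finset.sum_filter_add_sum_filter_not Finset.univ
    (fun a : ZMod l => quadraticChar (ZMod l) a = 1) f, filter_not80,
    Finset.sum_insert zero_notMem80]
  rfl

theorem prod_split80 {M : Type*} [CommMonoid M] (f : ZMod l → M) :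
    ∏ a, f a = (∏ a ∈ S80 l 1, f a) * (f 0 * ∏ a ∈ S80 l (-1), f a) := by
  rw [← Finset.prod_filter_mul_prod_filter_not Finset.univ
    (fun a : ZMod l => quadraticChar (ZMod l) a = 1) f, filter_not80,
    Finset.prod_insert zero_notMem80]
  rfl

theorem card_S80 (hl : l ≠ 2) : (S80 l 1).card = (S80 l (-1)).card := by
  have hch : ringChar (ZMod l) ≠ 2 := by
    rw [ZMod.ringChar_zmod_n]; exact hl
  have h := quadraticChar_sum_zero hch
  rw [sum_split80] at h
  have h1 : ∑ a ∈ S80 l 1, quadraticChar (ZMod l) a = ((S80 l 1).card : ℤ) := by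
    rw [Finset.sum_congr rfl (fun a ha => (mem_S80 1 a).mp ha)]
    simp
  have h2 : ∑ a ∈ S80 l (-1), quadraticChar (ZMod l) a = -((S80 l (-1)).card : ℤ) := by
    rw [Finset.sum_congr rfl (fun a ha => (mem_S80 (-1) a).mp ha)]
    simp
  rw [h1, h2] at h
  simp only [MulChar.map_zero, zero_add] at h
  omega

theorem card_S80_pos : (S80 l 1).card ≠ 0 := by
  have : (1 : ZMod l) ∈ S80 l 1 := by
    rw [mem_S80]; simp
  exact Finset.card_ne_zero_of_mem this

end split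

section chars

variable {l : ℕ} [Fact l.Prime]

theorem addChar_sum80 {ι : Type*} (ψ : AddChar (ZMod l) ℂ) (s : Finset ι) (f : ι → ZMod l) :
    ψ (∑ i ∈ s, f i) = ∏ i ∈ s, ψ (f i) := by
  classical
  induction s using Finset.induction_on with
  | empty => simp
  | insert a s ha ih =>
    rw [Finset.sum_insert ha, Finset.prod_insert ha, AddChar.map_add_eq_mul, ih]

/-- `∏_{a ∈ S₁} (X - ψ(r a))` -/
noncomputable def E80 (ψ : AddChar (ZMod l) ℂ) (r : ZMod l) : ℂ[X] :=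
  ∏ a ∈ S80 l 1, (X - C (ψ (r * a)))

/-- `∏_{a ∈ S_ε} (X - ψ(a))` -/
noncomputable def F80 (ψ : AddChar (ZMod l) ℂ) (ε : ℤ) : ℂ[X] :=
  ∏ a ∈ S80 l ε, (X - C (ψ a))

theorem E80_eq (ψ : AddChar (ZMod l) ℂ) (r : ZMod l) (hr : r ≠ 0) :
    E80 ψ r = F80 ψ (quadraticChar (ZMod l) r) := by
  unfold E80 F80
  refine Finset.prod_nbij' (fun a => r * a) (fun b => r⁻¹ * b) ?_ ?_ ?_ ?_ ?_
  · intro a ha
    rw [mem_S80] at ha ⊢
    rw [map_mul, ha, mul_one]
  · intro b hb
    rw [mem_S80] at hb ⊢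
    rw [map_mul, hb, ← map_mul, inv_mul_cancel₀ hr, map_one]
  · intro a _
    rw [← mul_assoc, inv_mul_cancel₀ hr, one_mul]
  · intro b _
    rw [← mul_assoc, mul_inv_cancel₀ hr, one_mul]
  · intro a _
    rfl

theorem E80_zero (ψ : AddChar (ZMod l) ℂ) : E80 ψ 0 = (X - 1) ^ (S80 l 1).card := by
  unfold E80
  simp

theorem E80_expand (ψ : AddChar (ZMod l) ℂ) (r : ZMod l) :
    E80 ψ r = ∑ T ∈ (S80 l 1).powerset,
      (-1) ^ T.card * X ^ (S80 l 1 \ T).card * C (ψ (r * ∑ a ∈ T, a)) := by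
  classical
  unfold E80
  rw [Finset.prod_sub]
  apply Finset.sum_congr rfl
  intro T _
  rw [Finset.prod_const, Finset.mul_sum, addChar_sum80, map_prod]

theorem sumE80 (ψ : AddChar (ZMod l) ℂ) (c : ZMod l → ℂ) :
    ∑ r, C (c r) * E80 ψ r = ∑ T ∈ (S80 l 1).powerset,
      (-1) ^ T.card * X ^ (S80 l 1 \ T).card * C (∑ r, c r * ψ (r * ∑ a ∈ T, a)) := by
  simp_rw [E80_expand, Finset.mul_sum]
  rw [Finset.sum_comm]
  apply Finset.sum_congr rfl
  intro T _
  rw [map_sum, Finset.mul_sum]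
  apply Finset.sum_congr rfl
  intro r _
  rw [C_mul]
  ring

end chars

/-- [GAUSS] -/
theorem pkgGauss : Cfsg.Agent.Lib.Lead.Ami.PkgGauss := by
  intro l hl hl4
  have : Fact l.Prime := ⟨hl⟩
  have hl2 : l ≠ 2 := by omega
  have hl0 : l ≠ 0 := hl.ne_zero
  have : NeZero l := ⟨hl0⟩
  classical
  obtain ⟨ζ, hζ⟩ : ∃ ζ : ℂ, IsPrimitiveRoot ζ l := ⟨_, Complex.isPrimitiveRoot_exp l hl0⟩
  let ψ : AddChar (ZMod l) ℂ := AddChar.zmodChar l hζ.pow_eq_one
  have hψ : ψ.IsPrimitive := AddChar.zmodChar_primitive_of_primitive_root l hζ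
  have hψv : ∀ a : ZMod l, ψ a = ζ ^ a.val := fun a => rfl
  have hinj : Function.Injective (fun a : ZMod l => ψ a) := by
    intro a b hab
    have h1 : ζ ^ a.val = ζ ^ b.val := hab
    exact ZMod.val_injective l (hζ.pow_inj (ZMod.val_lt a) (ZMod.val_lt b) h1)
  have hch : ringChar (ZMod l) ≠ 2 := by
    rw [ZMod.ringChar_zmod_n]; exact hl2
  obtain ⟨N, hN⟩ : ∃ N : ℕ, N = (S80 l 1).card := ⟨_, rfl⟩
  have hN' : (S80 l (-1)).card = N := by rw [hN]; exact (card_S80 hl2).symm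
  have hN0 : N ≠ 0 := by rw [hN]; exact card_S80_pos
  -- (a) the product formula
  have hprod : ∏ a : ZMod l, (X - C (ψ a)) = (X ^ l - 1 : ℂ[X]) := by
    rw [X_pow_sub_one_eq_prod hl.pos hζ]
    have himg : nthRootsFinset l (1 : ℂ) = Finset.univ.image (fun a : ZMod l => ψ a) := by
      symm
      apply Finset.eq_of_subset_of_card_le
      · intro x hx
        obtain ⟨a, -, rfl⟩ := Finset.mem_image.mp hx
        rw [mem_nthRootsFinset hl.pos, hψv, ← pow_mul, mul_comm, pow_mul, hζ.pow_eq_one, one_pow]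
      · rw [hζ.card_nthRootsFinset, Finset.card_image_of_injective _ hinj, Finset.card_univ,
          ZMod.card]
    rw [himg, Finset.prod_image (fun a _ b _ h => hinj h)]
  have hFF : F80 ψ 1 * F80 ψ (-1) = cyclotomic l ℂ := by
    have h1 := prod_split80 (fun a : ZMod l => (X - C (ψ a) : ℂ[X]))
    rw [hprod] at h1
    have h2 := cyclotomic_prime_mul_X_sub_one ℂ l
    have hne : (X - 1 : ℂ[X]) ≠ 0 := by
      have := X_sub_C_ne_zero (1 : ℂ)
      simpa using this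
    apply mul_right_cancel₀ hne
    rw [h2, h1]
    simp only [AddChar.map_zero_eq_one, map_one]
    unfold F80
    ring
  -- (c) character sums
  have hsum1 : ∀ b : ZMod l, ∑ r, ψ (r * b) = if b = 0 then (l : ℂ) else 0 := by
    intro b
    rw [AddChar.sum_mulShift b hψ]
    simp [ZMod.card]
  obtain ⟨g, hg⟩ : ∃ g : ℂ, g = ∑ a : ZMod l, ((quadraticChar (ZMod l) a : ℤ) : ℂ) * ψ a :=
    ⟨_, rfl⟩
  have hsum2 : ∀ b : ZMod l, ∑ r, ((quadraticChar (ZMod l) r : ℤ) : ℂ) * ψ (r * b)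
      = ((quadraticChar (ZMod l) b : ℤ) : ℂ) * g := by
    intro b
    by_cases hb : b = 0
    · subst hb
      simp only [mul_zero, AddChar.map_zero_eq_one, mul_one, MulChar.map_zero, Int.cast_zero,
        zero_mul]
      rw [← Int.cast_sum, quadraticChar_sum_zero hch, Int.cast_zero]
    · rw [hg, Finset.mul_sum]
      apply Fintype.sum_equiv (Equiv.mulRight₀ b hb)
      intro r
      have hsq : ((quadraticChar (ZMod l) b : ℤ) : ℂ) ^ 2 = 1 := by
        rw [← Int.cast_pow, quadraticChar_sq_one hb, Int.cast_one]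
      have hrb : (Equiv.mulRight₀ b hb) r = r * b := rfl
      have hm : quadraticChar (ZMod l) (r * b)
          = quadraticChar (ZMod l) r * quadraticChar (ZMod l) b := map_mul _ r b
      rw [hrb, hm, Int.cast_mul]
      linear_combination (-(((quadraticChar (ZMod l) r : ℤ) : ℂ) * ψ (r * b))) * hsq
  -- (d) the Gauss sum
  have hg2 : g ^ 2 = -(l : ℂ) := by
    have hχ1 : (quadraticChar (ZMod l)).ringHomComp (Int.castRingHom ℂ) ≠ 1 := by
      intro h
      have hne : (S80 l (-1)).Nonempty := by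
        rw [← Finset.card_pos, hN']; omega
      obtain ⟨a, ha⟩ := hne
      rw [mem_S80] at ha
      have ha0 : a ≠ 0 := by
        intro h0
        rw [h0, MulChar.map_zero] at ha
        omega
      have h1 := congrArg (fun χ : MulChar (ZMod l) ℂ => χ a) h
      simp only [MulChar.ringHomComp_apply, ha, MulChar.one_apply (isUnit_iff_ne_zero.mpr ha0)]
        at h1
      norm_num at h1
    have hχ2 : ((quadraticChar (ZMod l)).ringHomComp (Int.castRingHom ℂ)).IsQuadratic :=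
      (quadraticChar_isQuadratic (ZMod l)).comp _
    have h := gaussSum_sq hχ1 hχ2 hψ
    have hgg : gaussSum ((quadraticChar (ZMod l)).ringHomComp (Int.castRingHom ℂ)) ψ = g := by
      rw [hg]; rfl
    rw [hgg, MulChar.ringHomComp_apply, quadraticChar_neg_one hch, ZMod.card,
      ZMod.χ₄_nat_three_mod_four hl4] at h
    rw [h]
    simp
  -- the integral polynomials
  obtain ⟨Y₀, hY₀⟩ : ∃ Y₀ : ℤ[X], Y₀ = ∑ T ∈ (S80 l 1).powerset,
      (-1) ^ T.card * X ^ (S80 l 1 \ T).card *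
        C (if ∑ a ∈ T, a = 0 then (l : ℤ) else 0) := ⟨_, rfl⟩
  obtain ⟨Z, hZ⟩ : ∃ Z : ℤ[X], Z = ∑ T ∈ (S80 l 1).powerset,
      (-1) ^ T.card * X ^ (S80 l 1 \ T).card *
        C (quadraticChar (ZMod l) (∑ a ∈ T, a)) := ⟨_, rfl⟩
  have hmY₀ : map (Int.castRingHom ℂ) Y₀ = ∑ r, C (1 : ℂ) * E80 ψ r := by
    rw [sumE80, hY₀, Polynomial.map_sum]
    apply Finset.sum_congr rfl
    intro T _
    simp only [one_mul, hsum1]
    simp only [Polynomial.map_mul, Polynomial.map_pow, Polynomial.map_neg, Polynomial.map_one,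
      Polynomial.map_X, Polynomial.map_C]
    congr 2
    split_ifs <;> simp
  have hmZ : C g * map (Int.castRingHom ℂ) Z
      = ∑ r, C ((quadraticChar (ZMod l) r : ℤ) : ℂ) * E80 ψ r := by
    rw [sumE80, hZ, Polynomial.map_sum, Finset.mul_sum]
    apply Finset.sum_congr rfl
    intro T _
    simp only [hsum2]
    simp only [Polynomial.map_mul, Polynomial.map_pow, Polynomial.map_neg, Polynomial.map_one,
      Polynomial.map_X, Polynomial.map_C, C_mul]
    simp only [eq_intCast]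
    ring
  -- the left-hand sides
  have hEp : ∀ r ∈ S80 l 1, E80 ψ r = F80 ψ 1 := by
    intro r hr
    rw [mem_S80] at hr
    have hr0 : r ≠ 0 := by
      intro h0
      rw [h0, MulChar.map_zero] at hr
      omega
    rw [E80_eq ψ r hr0, hr]
  have hEm : ∀ r ∈ S80 l (-1), E80 ψ r = F80 ψ (-1) := by
    intro r hr
    rw [mem_S80] at hr
    have hr0 : r ≠ 0 := by
      intro h0
      rw [h0, MulChar.map_zero] at hr
      omega
    rw [E80_eq ψ r hr0, hr]
  have hs1 : ∑ r ∈ S80 l 1, C (1 : ℂ) * E80 ψ r = (N : ℂ[X]) * F80 ψ 1 := by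
    have h : ∀ r ∈ S80 l 1, C (1 : ℂ) * E80 ψ r = F80 ψ 1 := by
      intro r hr
      rw [hEp r hr, map_one, one_mul]
    rw [Finset.sum_congr rfl h, Finset.sum_const, ← hN, nsmul_eq_mul]
  have hs2 : ∑ r ∈ S80 l (-1), C (1 : ℂ) * E80 ψ r = (N : ℂ[X]) * F80 ψ (-1) := by
    have h : ∀ r ∈ S80 l (-1), C (1 : ℂ) * E80 ψ r = F80 ψ (-1) := by
      intro r hr
      rw [hEm r hr, map_one, one_mul]
    rw [Finset.sum_congr rfl h, Finset.sum_const, hN', nsmul_eq_mul]
  have hs3 : ∑ r ∈ S80 l 1, C ((quadraticChar (ZMod l) r : ℤ) : ℂ) * E80 ψ r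
      = (N : ℂ[X]) * F80 ψ 1 := by
    have h : ∀ r ∈ S80 l 1, C ((quadraticChar (ZMod l) r : ℤ) : ℂ) * E80 ψ r = F80 ψ 1 := by
      intro r hr
      rw [hEp r hr, (mem_S80 1 r).mp hr, Int.cast_one, map_one, one_mul]
    rw [Finset.sum_congr rfl h, Finset.sum_const, ← hN, nsmul_eq_mul]
  have hs4 : ∑ r ∈ S80 l (-1), C ((quadraticChar (ZMod l) r : ℤ) : ℂ) * E80 ψ r
      = -((N : ℂ[X]) * F80 ψ (-1)) := by
    have h : ∀ r ∈ S80 l (-1), C ((quadraticChar (ZMod l) r : ℤ) : ℂ) * E80 ψ r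
        = -F80 ψ (-1) := by
      intro r hr
      rw [hEm r hr, (mem_S80 (-1) r).mp hr, Int.cast_neg, Int.cast_one, map_neg, map_one,
        neg_one_mul]
    rw [Finset.sum_congr rfl h, Finset.sum_const, hN', nsmul_eq_mul, mul_neg]
  have hL1 : ∑ r, C (1 : ℂ) * E80 ψ r
      = (X - 1) ^ N + (N : ℂ[X]) * F80 ψ 1 + (N : ℂ[X]) * F80 ψ (-1) := by
    rw [sum_split80, hs1, hs2, E80_zero, ← hN, map_one, one_mul]
    ring
  have hL2 : ∑ r, C ((quadraticChar (ZMod l) r : ℤ) : ℂ) * E80 ψ r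
      = (N : ℂ[X]) * F80 ψ 1 - (N : ℂ[X]) * F80 ψ (-1) := by
    rw [sum_split80, hs3, hs4, MulChar.map_zero, Int.cast_zero, map_zero, zero_mul]
    ring
  refine ⟨N, Y₀ - (X - 1) ^ N, Z, hN0, ?_⟩
  apply Polynomial.map_injective (Int.castRingHom ℂ) Int.cast_injective
  have hmY : map (Int.castRingHom ℂ) (Y₀ - (X - 1) ^ N)
      = (N : ℂ[X]) * F80 ψ 1 + (N : ℂ[X]) * F80 ψ (-1) := by
    rw [Polynomial.map_sub, hmY₀, hL1]
    simp only [Polynomial.map_pow, Polynomial.map_sub, Polynomial.map_X, Polynomial.map_one]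
    ring
  have hmZ' : C g * map (Int.castRingHom ℂ) Z
      = (N : ℂ[X]) * F80 ψ 1 - (N : ℂ[X]) * F80 ψ (-1) := by
    rw [hmZ, hL2]
  have hCg : (C g : ℂ[X]) ^ 2 = -C (l : ℂ) := by
    rw [← C_pow, hg2, C_neg]
  simp only [Polynomial.map_mul, Polynomial.map_add, Polynomial.map_pow, Polynomial.map_C,
    map_cyclotomic]
  rw [hmY]
  have hZ2 : C ((Int.castRingHom ℂ) (l : ℤ)) * map (Int.castRingHom ℂ) Z ^ 2
      = -((C g * map (Int.castRingHom ℂ) Z) ^ 2) := by
    rw [mul_pow, hCg]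
    simp
  rw [hZ2, hmZ', ← hFF]
  simp only [eq_intCast, Int.cast_mul, Int.cast_pow, Int.cast_natCast, Int.cast_ofNat, C_mul,
    C_pow]
  have hC4 : (C (4 : ℂ) : ℂ[X]) = 4 := by
    rw [← Nat.cast_ofNat, C_eq_natCast]
    norm_num
  have hCN : (C (N : ℂ) : ℂ[X]) = (N : ℂ[X]) := C_eq_natCast N
  rw [hC4, hCN]
  ring

end Cfsg.Agent.Lib.Helper80.Ami
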